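import Cfsg.Agent.Lib.Chev.Comms

/-!
# A verified collector for words in root elements

Words in root elements with polynomial parameters are collected by the commutator formula.  The computation runs in
the kernel on the polynomial data; the parameters are then evaluated in an arbitrary field.
-/

namespace Cfsg.Agent.Lib.Chev.Col

open Cfsg.Lie Matrix

/-- a monomial: a coefficient and a list of variables -/
abbrev Mon := ℤ × List ℕ
/-- a polynomial -/
abbrev Pol := List Mon

/-- insertion in a sorted list -/
def insN (a : ℕ) : List ℕ → List ℕ
  | [] => [a]
  | b :: l => bif Nat.ble a b then a :: b :: l else b :: insN a l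

/-- insertion sort -/
def isort : List ℕ → List ℕ
  | [] => []
  | a :: l => insN a (isort l)

/-- equality of lists of variables -/
def eqL : List ℕ → List ℕ → Bool
  | [], [] => true
  | a :: l, b :: l' => Nat.beq a b && eqL l l'
  | _, _ => false

/-- adding a monomial to a normal form -/
def addM (m : Mon) : Pol → Pol
  | [] => [m]
  | a :: l => bif eqL m.2 a.2 then (m.1 + a.1, a.2) :: l else a :: addM m l

/-- reduction of coefficients -/
def redC (P : ℕ) (c : ℤ) : ℤ := bif Nat.beq P 0 then c else c % (P : ℤ)

/-- is an integer zero -/
def isZ : ℤ → Bool
  | Int.ofNat 0 => true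
  | _ => false

theorem eq_zero_of_isZ {c : ℤ} (h : isZ c = true) : c = 0 := by
  match c, h with
  | Int.ofNat 0, _ => rfl

/-- normal form: monomials sorted, merged, coefficients reduced -/
def norm (P : ℕ) (p : Pol) : Pol :=
  ((p.foldr (fun a L => addM (a.1, isort a.2) L) []).map fun a => (redC P a.1, a.2)).filter fun a => !(isZ a.1)

/-- the product of polynomials -/
def pmul (p q : Pol) : Pol := p.flatMap fun a => q.map fun b => (a.1 * b.1, a.2 ++ b.2)

/-- the power of a polynomial -/
def ppow (p : Pol) : ℕ → Pol
  | 0 => [(1, [])]
  | n + 1 => pmul (ppow p n) p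

/-- the negative of a polynomial -/
def pneg (p : Pol) : Pol := p.map fun a => (-a.1, a.2)

/-- the scalar multiple of a polynomial -/
def psmul (c : ℤ) (p : Pol) : Pol := p.map fun a => (c * a.1, a.2)

section Eval

variable {F : Type*} [Field F] (v : ℕ → F)

/-- the value of a monomial -/
def evM (m : Mon) : F := (m.1 : F) * (m.2.map v).prod

/-- the value of a polynomial -/
def ev (p : Pol) : F := (p.map (evM v)).sum

@[simp] theorem ev_nil : ev v [] = 0 := rfl
@[simp] theorem ev_cons (a : Mon) (l : Pol) : ev v (a :: l) = evM v a + ev v l := by simp [ev]

theorem ev_append (p q : Pol) : ev v (p ++ q) = ev v p + ev v q := by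
  simp [ev]

theorem prod_insN (a : ℕ) (l : List ℕ) : ((insN a l).map v).prod = v a * (l.map v).prod := by
  induction l with
  | nil => simp [insN]
  | cons b l ih =>
    simp only [insN]
    cases Nat.ble a b with
    | true => simp
    | false =>
      simp only [cond_false, List.map_cons, List.prod_cons, ih]
      ring

theorem prod_isort (l : List ℕ) : ((isort l).map v).prod = (l.map v).prod := by
  induction l with
  | nil => rfl
  | cons a l ih => simp only [isort, prod_insN, ih, List.map_cons, List.prod_cons]

theorem eq_of_eqL {l l' : List ℕ} (h : eqL l l' = true) : l = l' := by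
  induction l generalizing l' with
  | nil =>
    cases l' with
    | nil => rfl
    | cons _ _ => simp [eqL] at h
  | cons a l ih =>
    cases l' with
    | nil => simp [eqL] at h
    | cons b l' =>
      simp only [eqL, Bool.and_eq_true] at h
      rw [Nat.eq_of_beq_eq_true h.1, ih h.2]

theorem ev_addM (m : Mon) (l : Pol) : ev v (addM m l) = evM v m + ev v l := by
  induction l with
  | nil => simp [addM]
  | cons a l ih =>
    simp only [addM]
    cases h : eqL m.2 a.2 with
    | true =>
      have := eq_of_eqL h
      simp only [cond_true, ev_cons, evM, this]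
      push_cast
      ring
    | false =>
      simp only [cond_false, ev_cons, ih]
      ring

theorem ev_foldr (p : Pol) : ev v (p.foldr (fun a L => addM (a.1, isort a.2) L) []) = ev v p := by
  induction p with
  | nil => rfl
  | cons a l ih =>
    simp only [List.foldr_cons, ev_addM, ev_cons, ih, evM, prod_isort]

variable {P : ℕ} (hP : (P : F) = 0)

include hP in
theorem cast_redC (c : ℤ) : ((redC P c : ℤ) : F) = c := by
  unfold redC
  cases h : Nat.beq P 0 with
  | true => rfl
  | false =>
    simp only [cond_false]
    have h1 : c % (P : ℤ) = c - P * (c / P) := by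
      have := Int.emod_add_mul_ediv c P
      omega
    rw [h1]
    push_cast
    rw [hP]
    ring

include hP in
theorem ev_map_red (p : Pol) : ev v (p.map fun a => (redC P a.1, a.2)) = ev v p := by
  induction p with
  | nil => rfl
  | cons a l ih =>
    simp only [List.map_cons, ev_cons, ih, evM, cast_redC hP]

theorem ev_filter (p : Pol) : ev v (p.filter fun a => !(isZ a.1)) = ev v p := by
  induction p with
  | nil => rfl
  | cons a l ih =>
    simp only [List.filter_cons]
    cases h : isZ a.1 with
    | true =>
      have h1 : a.1 = 0 := eq_zero_of_isZ h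
      simp [ih, evM, h1]
    | false => simp [ih]

include hP in
theorem ev_norm (p : Pol) : ev v (norm P p) = ev v p := by
  unfold norm
  rw [ev_filter, ev_map_red v hP, ev_foldr]

theorem ev_pmul (p q : Pol) : ev v (pmul p q) = ev v p * ev v q := by
  induction p with
  | nil => simp [pmul]
  | cons a l ih =>
    have h1 : pmul (a :: l) q = (q.map fun b => (a.1 * b.1, a.2 ++ b.2)) ++ pmul l q := by
      simp [pmul]
    rw [h1, ev_append, ih, ev_cons, add_mul]
    congr 1
    clear h1 ih
    induction q with
    | nil => simp
    | cons b q ih =>
      simp only [List.map_cons, ev_cons, ih, mul_add]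
      congr 1
      simp only [evM, List.map_append, List.prod_append]
      push_cast
      ring

theorem ev_ppow (p : Pol) (n : ℕ) : ev v (ppow p n) = (ev v p) ^ n := by
  induction n with
  | zero => simp [ppow, evM]
  | succ n ih => rw [ppow, ev_pmul, ih, pow_succ]

theorem ev_pneg (p : Pol) : ev v (pneg p) = - ev v p := by
  induction p with
  | nil => simp [pneg]
  | cons a l ih =>
    have h1 : pneg (a :: l) = (-a.1, a.2) :: pneg l := rfl
    rw [h1, ev_cons, ih, ev_cons, evM, evM]
    push_cast
    ring

theorem ev_psmul (c : ℤ) (p : Pol) : ev v (psmul c p) = (c : F) * ev v p := by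
  induction p with
  | nil => simp [psmul]
  | cons a l ih =>
    have h1 : psmul c (a :: l) = (c * a.1, a.2) :: psmul c l := rfl
    rw [h1, ev_cons, ih, ev_cons, evM, evM]
    push_cast
    ring

end Eval

/-! ### The collector -/

/-- A word with polynomial parameters. -/
abbrev PW := List (ℕ × Pol)

/-- The terms of the commutator formula. -/
def cW (D : ChevalleyDatum) (P : ℕ) (r s : ℕ) (p q : Pol) : PW :=
  (D.commTerms r s).map fun c => (c.1, norm P (psmul c.2.1 (pmul (ppow (pneg p) c.2.2.1) (ppow q c.2.2.2))))

/-- One step of the collector. -/
def step (D : ChevalleyDatum) (P : ℕ) (key : ℕ → ℕ) : PW → Option PW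
  | [] => none
  | [e] => bif e.2.isEmpty then some [] else none
  | e :: e' :: w =>
    bif e.2.isEmpty then some (e' :: w)
    else bif Nat.beq e.1 e'.1 then some ((e.1, norm P (e.2 ++ e'.2)) :: w)
    else bif Nat.blt (key e'.1) (key e.1) && Nat.blt e.1 D.nroots && Nat.blt e'.1 D.nroots && !Nat.beq e.1 (D.neg e'.1) then
      some (e' :: e :: (cW D P e'.1 e.1 e'.2 e.2 ++ w))
    else (step D P key (e' :: w)).map fun w' => e :: w'

/-- The collector. -/
def run (D : ChevalleyDatum) (P : ℕ) (key : ℕ → ℕ) : ℕ → PW → PW
  | 0, w => w
  | n + 1, w =>
    match step D P key w with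
    | none => w
    | some w' => run D P key n w'

/-- Comparison of words. -/
def eqW (P : ℕ) : PW → PW → Bool
  | [], [] => true
  | e :: w, e' :: w' => Nat.beq e.1 e'.1 && (norm P (e.2 ++ pneg e'.2)).isEmpty && eqW P w w'
  | _, _ => false

section Sound

variable {F : Type*} [Field F]
variable {T : Tabs} {X : Extra} {R : RootTab} {D : ChevalleyDatum} (hF : Full T X R D)
variable (v : ℕ → F)

/-- The value of a word. -/
noncomputable def evW (w : PW) : GL D.Idx F := hF.c.wordG (w.map fun e => (e.1, ev v e.2))

@[simp] theorem evW_nil : evW hF v [] = 1 := rfl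

theorem evW_cons (e : ℕ × Pol) (w : PW) : evW hF v (e :: w) = hF.c.xG e.1 (ev v e.2) * evW hF v w := by
  simp only [evW, List.map_cons]
  rw [Checks.wordG_cons]

theorem evW_append (w w' : PW) : evW hF v (w ++ w') = evW hF v w * evW hF v w' := by
  simp only [evW, List.map_append]
  rw [Checks.wordG_append]

variable {P : ℕ} (hP : (P : F) = 0)

include hP in
theorem evW_cW (r s : ℕ) (p q : Pol) :
    evW hF v (cW D P r s p q) = hF.c.wordG (D.commWord F r s (ev v p) (ev v q)) := by
  unfold evW cW ChevalleyDatum.commWord
  congr 1
  simp only [List.map_map]
  apply List.map_congr_left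
  intro c _
  simp only [Function.comp_apply, Prod.mk.injEq, true_and]
  rw [ev_norm v hP, ev_psmul, ev_pmul, ev_ppow, ev_ppow, ev_pneg]
  ring

include hP in
theorem evW_step {key : ℕ → ℕ} {w w' : PW} (h : step D P key w = some w') : evW hF v w' = evW hF v w := by
  induction w generalizing w' with
  | nil => simp [step] at h
  | cons e l ih =>
    cases l with
    | nil =>
      simp only [step] at h
      cases h1 : e.2.isEmpty with
      | false => rw [h1] at h; simp at h
      | true =>
        rw [h1] at h
        simp only [cond_true, Option.some.injEq] at h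
        subst h
        have h2 : e.2 = [] := List.isEmpty_iff.1 h1
        simp [evW_cons, h2]
    | cons e' l =>
      simp only [step] at h
      cases h1 : e.2.isEmpty with
      | true =>
        rw [h1] at h
        simp only [cond_true, Option.some.injEq] at h
        subst h
        have h2 : e.2 = [] := List.isEmpty_iff.1 h1
        rw [evW_cons hF v e, h2]
        simp
      | false =>
        rw [h1] at h
        simp only [cond_false] at h
        cases h3 : Nat.beq e.1 e'.1 with
        | true =>
          rw [h3] at h
          simp only [cond_true, Option.some.injEq] at h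
          subst h
          have h4 : e.1 = e'.1 := Nat.eq_of_beq_eq_true h3
          rw [evW_cons, evW_cons, evW_cons, ← mul_assoc]
          rw [ev_norm v hP, ev_append]
          simp only
          rw [h4, hF.c.xG_add]
        | false =>
          rw [h3] at h
          simp only [cond_false] at h
          cases h5 : (Nat.blt (key e'.1) (key e.1) && Nat.blt e.1 D.nroots && Nat.blt e'.1 D.nroots && !Nat.beq e.1 (D.neg e'.1)) with
          | true =>
            rw [h5] at h
            simp only [cond_true, Option.some.injEq] at h
            subst h
            simp only [Bool.and_eq_true, Bool.not_eq_true'] at h5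
            obtain ⟨⟨⟨-, h6⟩, h7⟩, h8⟩ := h5
            have hn1 : e.1 ≠ e'.1 := fun h => by
              rw [h] at h3
              simp at h3
            have hn2 : e.1 ≠ D.neg e'.1 := fun h => by
              rw [h] at h8
              simp at h8
            have hlt1 : e.1 < D.nroots := by simpa [Nat.blt] using h6
            have hlt2 : e'.1 < D.nroots := by simpa [Nat.blt] using h7
            rw [evW_cons, evW_cons, evW_cons, evW_cons, evW_append, evW_cW hF v hP]
            have h9 := hF.xG_comm hlt2 hlt1 hn1 hn2 (ev v e'.2) (ev v e.2)
            calc hF.c.xG e'.1 (ev v e'.2) * (hF.c.xG e.1 (ev v e.2) * (hF.c.wordG (D.commWord F e'.1 e.1 (ev v e'.2) (ev v e.2)) * evW hF v l))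
                = (hF.c.xG e'.1 (ev v e'.2) * hF.c.xG e.1 (ev v e.2) * hF.c.wordG (D.commWord F e'.1 e.1 (ev v e'.2) (ev v e.2))) * evW hF v l := by
                  simp only [mul_assoc]
              _ = _ := by
                  rw [← h9]
                  simp only [mul_assoc]
          | false =>
            rw [h5] at h
            simp only [cond_false] at h
            cases h6 : step D P key (e' :: l) with
            | none => rw [h6] at h; simp at h
            | some w'' =>
              rw [h6] at h
              simp only [Option.map_some, Option.some.injEq] at h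
              subst h
              rw [evW_cons, evW_cons hF v e, ih h6]

include hP in
theorem evW_run {key : ℕ → ℕ} (n : ℕ) (w : PW) : evW hF v (run D P key n w) = evW hF v w := by
  induction n generalizing w with
  | zero => rfl
  | succ n ih =>
    simp only [run]
    cases h : step D P key w with
    | none => rfl
    | some w' =>
      simp only
      rw [ih, evW_step hF v hP h]

include hP in
theorem evW_eqW {w w' : PW} (h : eqW P w w' = true) : evW hF v w = evW hF v w' := by
  induction w generalizing w' with
  | nil =>
    cases w' with
    | nil => rfl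
    | cons _ _ => simp [eqW] at h
  | cons e w ih =>
    cases w' with
    | nil => simp [eqW] at h
    | cons e' w' =>
      simp only [eqW, Bool.and_eq_true] at h
      obtain ⟨⟨h1, h2⟩, h3⟩ := h
      rw [evW_cons, evW_cons, ih h3, Nat.eq_of_beq_eq_true h1]
      have h4 : norm P (e.2 ++ pneg e'.2) = [] := List.isEmpty_iff.1 h2
      have h5 := ev_norm v hP (e.2 ++ pneg e'.2)
      rw [h4, ev_append, ev_pneg, ev_nil] at h5
      have h6 : ev v e.2 = ev v e'.2 := by
        linear_combination -h5
      rw [h6]

include hP in
/-- The main theorem of the collector. -/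
theorem col_eq {key : ℕ → ℕ} {n : ℕ} {w w' : PW} (h : eqW P (run D P key n w) w' = true) :
    evW hF v w = evW hF v w' := by
  rw [← evW_run hF v hP (key := key) n w]
  exact evW_eqW hF v hP h

end Sound

end Cfsg.Agent.Lib.Chev.Col
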